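import Cfsg.Agent.Mult.Slices
import Cfsg.Agent.McLC.Mulc3T0

set_option autoImplicit false
set_option Elab.async false
set_option maxRecDepth 100000
set_option linter.all false

namespace Cfsg.Agent.McLC
open Cfsg.Agent.CGT

open Cfsg.Agent.Mult

theorem mulc3_p : Holds (lp mulc3_ns) qRR :=
  (forall_dropL (a := 0) (m := 17) (holdsB_sound mulc3_v mulc3_p0) (forall_dropL (a := 17) (m := 10) (holdsB_sound mulc3_v mulc3_p1) (forall_dropL_end (l := qRR) (a := 27) (by decide +kernel))))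
theorem mulc3_proj : Proj (yM 3 mulc3_ns mulc3_C) (zM 3 mulc3_U) 3 qRR mulc3_a :=
  have hq : 3 = 2 ∨ 3 = 3 ∨ 3 = 4 := by decide
  proj_mono hq mulc3_v mulc3_p (MonR.zero.step hq mulc3_v mulc3_m0) mulc3_i

end Cfsg.Agent.McLC
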